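import Cfsg.Agent.Lib.AltSec.Inst
import Cfsg.Agent.Lib.Alt.DegE
import Cfsg.Agent.S0892

/-! Alternating sections with a kernel of order prime to a given odd prime. -/

set_option autoImplicit false

namespace Cfsg.Lib.Alt78

open Subgroup Cfsg.Lib.AltSec Cfsg.Lib.Chev Function

/-- Elementary abelian `s`-sections are small. -/
def RK (L : Type) [Group L] (s b : ℕ) : Prop :=
  ∀ Q : Subgroup L, IsPGroup s Q → ∀ (V : Type) [Group V] (φ : Q →* V), Surjective φ →
    (∀ a b : V, a * b = b * a) → (∀ a : V, a ^ s = 1) → Nat.card V < b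

variable {L : Type} [Group L] {n s b : ℕ}

theorem RK.sub (h : RK L s b) (M : Subgroup L) : RK M s b := fun Q hQ V _ φ hφ =>
  h (Q.map M.subtype) (hQ.map _) V
    (φ.comp (Q.equivMapOfInjective _ M.subtype_injective).symm.toMonoidHom)
    (hφ.comp (MulEquiv.surjective _))

theorem RK.quot [Finite L] [Fact s.Prime] (h : RK L s b) {L' : Type} [Group L'] (π : L →* L')
    (hπ : Surjective π) : RK L' s b := fun Q hQ V _ φ hφ => by
  obtain ⟨P, h1, h2, h3, -⟩ := exists_pLift π hQ fun a _ => hπ a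
  refine h P h1 V (φ.comp ((π.comp P.subtype).codRestrict Q fun x => h2 x x.2))
    (hφ.comp fun a => ?_)
  obtain ⟨x, hx, e⟩ := h3 a a.2
  exact ⟨⟨x, hx⟩, Subtype.ext e⟩

theorem RK.of_ab [Finite L] (h : ∀ Q : Subgroup L, IsPGroup s Q → ∃ T : Subgroup L, T ≤ Q ∧
    (∀ a ∈ T, ∀ b ∈ T, a * b = b * a) ∧ T.relIndex Q * Nat.card {t : T // t ^ s = 1} < b) :
    RK L s b := fun Q hQ V _ φ hφ _ hV => by
  obtain ⟨T, h1, h2, h3⟩ := h Q hQ
  letI : CommGroup T := { (inferInstance : Group T) with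
    mul_comm := fun a b => Subtype.ext (h2 a a.2 b b.2) }
  let ψ : T →* V := φ.comp (inclusion h1)
  let p : T →* T := powMonoidHom s
  have h4 : p.range.index = Nat.card p.ker := by
    have e1 := p.range.index_mul_card
    rw [← p.ker.index_mul_card, index_ker, mul_comm (Nat.card _)] at e1
    exact (Nat.eq_of_mul_eq_mul_right Nat.card_pos e1)
  have h5 : Nat.card ψ.range ≤ Nat.card {t : T // t ^ s = 1} := by
    rw [← index_ker, show Nat.card {t : T // t ^ s = 1} = Nat.card p.ker from rfl, ← h4]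
    refine Nat.le_of_dvd (Nat.pos_of_ne_zero index_ne_zero_of_finite) (index_dvd_of_le ?_)
    rintro _ ⟨x, rfl⟩
    exact (map_pow ψ x s).trans (hV _)
  have h6 : ψ.range.index ≤ T.relIndex Q := by
    rw [MonoidHom.range_comp, inclusion_range]
    exact Nat.le_of_dvd (Nat.pos_of_ne_zero index_ne_zero_of_finite) (index_map_dvd _ hφ)
  rw [← ψ.range.index_mul_card]
  exact (Nat.mul_le_mul h6 h5).trans_lt h3

theorem map_eq_top_of_ne (hn : 5 ≤ n) {f : L →* alternatingGroup (Fin n)} (hf : Surjective f)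
    (M : Subgroup L) [M.Normal] {x : L} (hx : x ∈ M) (h : f x ≠ 1) : M.map f = ⊤ :=
  haveI := alternatingGroup.isSimpleGroup (α := Fin n) (by simpa using hn)
  ((Normal.map inferInstance f hf).eq_bot_or_eq_top).resolve_left fun e =>
    h (mem_bot.1 (e ▸ mem_map_of_mem f hx))

theorem core [Fact s.Prime] (hn : 9 ≤ n) (hs : s ≠ 2) (m : ℕ) : ∀ (L : Type) [Group L] [Finite L],
    Nat.card L = m → ∀ f : L →* alternatingGroup (Fin n), Surjective f → RK L s (s ^ (n - 2)) →
      (∀ M : Subgroup L, M.map f = ⊤ → M = ⊤) → ¬ s ∣ Nat.card f.ker := by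
  induction m using Nat.strong_induction_on with | _ m ih => ?_
  intro L _ _ hm f hf hr hmin hd
  have hp : s.Prime := Fact.out
  have hN : ∀ N : Subgroup L, N.Normal → N ≤ f.ker → N ≠ ⊥ → ¬ s ∣ N.relIndex f.ker :=
    fun N _ h1 h2 => by
      have := ih _ (hm ▸ Core.card_quotient_lt h2) (L ⧸ N) rfl (QuotientGroup.lift N f h1)
        (fun a => (hf a).elim fun x hx => ⟨x, hx⟩) (hr.quot _ (QuotientGroup.mk'_surjective N))
        fun M hM => by
          rw [← map_comap_eq_self_of_surjective (QuotientGroup.mk'_surjective N) M,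
            Subgroup.map_map] at hM
          rw [← map_comap_eq_self_of_surjective (QuotientGroup.mk'_surjective N) M, hmin _ hM,
            map_top_of_surjective _ (QuotientGroup.mk'_surjective N)]
      rwa [QuotientGroup.ker_lift, ← relIndex_ker, QuotientGroup.ker_mk'] at this
  have h1 : IsPGroup s f.ker := by
    refine IsPGroup.of_card (n := (Nat.card f.ker).primeFactorsList.length)
      (Nat.eq_prime_pow_of_unique_prime_dvd Nat.card_pos.ne' fun {t} ht h2 => ?_)
    by_contra h3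
    have := Fact.mk ht
    obtain ⟨P⟩ : Nonempty (Sylow t f.ker) := inferInstance
    have hQ : ((P : Subgroup f.ker).map f.ker.subtype).Normal := normalizer_eq_top_iff.1 (hmin _ (by
      have := congrArg (map f) P.normalizer_sup_eq_top
      rwa [Subgroup.map_sup, (Subgroup.map_eq_bot_iff f.ker).2 le_rfl, sup_bot_eq,
        map_top_of_surjective _ hf] at this))
    refine hN _ hQ (map_subtype_le _) (fun e => P.ne_bot_of_dvd_card h2
      ((map_eq_bot_iff_of_injective _ (subtype_injective _)).1 e)) ?_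
    rw [relIndex, subgroupOf, comap_map_eq_self_of_injective (subtype_injective _)]
    obtain ⟨k, hk⟩ := IsPGroup.iff_card.1 P.isPGroup'
    rw [← (P : Subgroup f.ker).index_mul_card, hk] at hd
    exact (hp.dvd_mul.1 hd).resolve_right fun h =>
      h3 ((Nat.prime_dvd_prime_iff_eq hp ht).1 (hp.dvd_of_dvd_pow h)).symm
  let Z : Subgroup L :=
    { carrier := {x | x ∈ f.ker ⊓ centralizer (f.ker : Set L) ∧ x ^ s = 1}
      one_mem' := ⟨one_mem _, one_pow _⟩
      mul_mem' := fun {a b} ha hb => ⟨mul_mem ha.1 hb.1, by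
        rw [(show Commute a b from hb.1.2 a ha.1.1).mul_pow, ha.2, hb.2, mul_one]⟩
      inv_mem' := fun {a} ha => ⟨inv_mem ha.1, by rw [inv_pow, ha.2, inv_one]⟩ }
  have h2 : f.ker ≤ Z := by
    have hZ : Z.Normal := ⟨fun a ha g => ⟨Normal.conj_mem inferInstance a ha.1 g, by
      rw [conj_pow, ha.2, mul_one, mul_inv_cancel]⟩⟩
    have : Nontrivial f.ker := Finite.one_lt_card_iff_nontrivial.1
      (hp.one_lt.trans_le (Nat.le_of_dvd Nat.card_pos hd))
    have := h1.center_nontrivial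
    obtain ⟨k, hk, e⟩ := (h1.to_subgroup (center f.ker)).nontrivial_iff_card.1 this
    obtain ⟨z, hz⟩ := exists_prime_orderOf_dvd_card' (G := center f.ker) s (e ▸ dvd_pow_self s hk.ne')
    have h3 := hN Z hZ (fun a ha => ha.1.1) fun e => by
      have h4 : (z.1.1 : L) ∈ Z := ⟨⟨z.1.2, fun y hy => congrArg Subtype.val
        (mem_center_iff.1 z.2 ⟨y, hy⟩)⟩, congrArg (·.1.1) (hz ▸ pow_orderOf_eq_one z)⟩
      rw [e, mem_bot] at h4
      rw [show z = 1 from Subtype.ext (Subtype.ext h4), orderOf_one] at hz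
      exact hp.one_lt.ne hz
    obtain ⟨k, hk⟩ := h1.index (Z.subgroupOf f.ker)
    rw [← relIndex_eq_one, relIndex, hk]
    rw [relIndex, hk] at h3
    rcases k with _ | k
    · rfl
    · exact absurd (dvd_pow_self s k.succ_ne_zero) h3
  obtain ⟨V, _, _, _, ρ, h3, h4⟩ := Alt.exists_zmod_rep f.ker s
    (fun a ha b hb => (h2 hb).1.2 a ha) fun a ha => (h2 ha).2
  have h5 := hr f.ker h1 f.ker (MonoidHom.id _) surjective_id
    (fun a b => Subtype.ext ((h2 b.2).1.2 a a.2)) fun a => Subtype.ext (h2 a.2).2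
  rw [h3, Nat.pow_lt_pow_iff_right hp.one_lt] at h5
  obtain ⟨x, h6, h7⟩ : ∃ x, ρ x = 1 ∧ f x ≠ 1 := by
    by_contra! h8
    have h9 := Alt.feit_tits hn _ L rfl f hf (ZMod s) V ρ h8
    have := Alt.le_dd (k := ZMod s) n
    omega
  have h8 := hmin _ (map_eq_top_of_ne (by omega) hf (centralizer (f.ker : Set L)) (x := x)
    (fun b hb => (mul_inv_eq_iff_eq_mul.1 ((h4 x).1 h6 b hb)).symm) h7)
  have h9 : commutator L = ⊤ := hmin _ (by
    rw [_root_.commutator_def, map_commutator, map_top_of_surjective _ hf, ← _root_.commutator_def,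
      commutator_alternatingGroup_eq_top (by simp; omega)])
  have h10 := Cfsg.Agent.S0892.result n (by omega) (by omega) (by omega) f.ker
    (fun z hz => mem_center_iff.2 fun g => ((h8.ge (mem_top g)) z hz).symm) (h9 ▸ le_top)
    (QuotientGroup.quotientKerEquivOfSurjective f hf)
  have := Nat.le_of_dvd Nat.card_pos hd
  have := hp.two_le
  omega

theorem exists_coprime_of_rk {G : Type} [Group G] [Finite G] [Fact s.Prime] (hn : 9 ≤ n)
    (hs : s ≠ 2) (h : Sec G n) (hr : RK G s (s ^ (n - 2))) :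
    ∃ (L : Subgroup G) (f : L →* alternatingGroup (Fin n)), Surjective f ∧ ¬ s ∣ Nat.card f.ker := by
  obtain ⟨L, f, hf⟩ := h
  induction hm : Nat.card L using Nat.strong_induction_on generalizing L with | _ m ih => ?_
  by_cases hmin : ∀ M : Subgroup L, M.map f = ⊤ → M = ⊤
  · exact ⟨L, f, hf, core hn hs _ L rfl f hf (hr.sub L) hmin⟩
  push Not at hmin
  obtain ⟨M, hM, h6⟩ := hmin
  refine ih _ ?_ (M.map L.subtype) ((f.comp M.subtype).comp
    (M.equivMapOfInjective _ L.subtype_injective).symm.toMonoidHom) (fun a => ?_) rfl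
  · rw [card_map_of_injective L.subtype_injective, ← hm]
    exact (card_le_card_group M).lt_of_ne fun e => h6 (eq_top_of_card_eq _ e)
  · obtain ⟨x, hx, rfl⟩ := hM.ge (mem_top a)
    exact ⟨M.equivMapOfInjective _ L.subtype_injective ⟨x, hx⟩, by simp⟩

theorem exists_coprime {G : Type} [Group G] [Finite G] [Fact s.Prime] (hn : 9 ≤ n) (hs : s ≠ 2)
    (h : Sec G n) (hr : ∀ Q : Subgroup G, IsPGroup s Q → ∃ T : Subgroup G, T ≤ Q ∧
      (∀ a ∈ T, ∀ b ∈ T, a * b = b * a) ∧
        T.relIndex Q * Nat.card {t : T // t ^ s = 1} < s ^ (n - 2)) :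
    ∃ (L : Subgroup G) (f : L →* alternatingGroup (Fin n)), Surjective f ∧ ¬ s ∣ Nat.card f.ker :=
  exists_coprime_of_rk hn hs h (.of_ab hr)

/-- An `s`-subgroup of the quotient lifts, together with the action of its normalizer. -/
theorem exists_lift {L B : Type*} [Group L] [Finite L] [Group B] [Fact s.Prime] {f : L →* B}
    (hf : Surjective f) (hk : ¬ s ∣ Nat.card f.ker) {A : Subgroup B} (hA : IsPGroup s A) :
    ∃ g : A →* L, (∀ a, f (g a) = a) ∧ ∀ (y : B) (hy : ∀ a ∈ A, y * a * y⁻¹ ∈ A),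
      ∃ x, f x = y ∧ ∀ a : A, x * g a * x⁻¹ = g ⟨y * a * y⁻¹, hy a a.2⟩ := by
  obtain ⟨P, h1, h2, h3, h4⟩ := exists_pLift f hA fun a _ => hf a
  let e : P →* A := (f.comp P.subtype).codRestrict A fun x => h2 x x.2
  have he : Bijective e := ⟨(injective_iff_map_eq_one e).2 fun x hx => by
    obtain ⟨k, hk'⟩ := h1 x
    exact Subtype.ext (orderOf_eq_one_iff.1 (Nat.eq_one_of_dvd_coprimes
      (((Fact.out : s.Prime).coprime_iff_not_dvd.2 hk).pow_left k)
      (orderOf_dvd_of_pow_eq_one (congrArg Subtype.val hk'))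
      (f.ker.orderOf_dvd_natCard (congrArg Subtype.val hx)))), fun a => by
    obtain ⟨x, hx, e⟩ := h3 a a.2
    exact ⟨⟨x, hx⟩, Subtype.ext e⟩⟩
  let e' := MulEquiv.ofBijective e he
  have h5 : ∀ a, f (e'.symm a) = a := fun a => congrArg Subtype.val (e'.apply_symm_apply a)
  refine ⟨P.subtype.comp e'.symm.toMonoidHom, h5, fun y hy => ?_⟩
  obtain ⟨y, rfl⟩ := hf y
  obtain ⟨x, h6, h7⟩ := h4 y hy
  refine ⟨x, h6, fun a => congrArg Subtype.val (show (⟨_, h7 _ (e'.symm a).2⟩ : P) = e'.symm _ from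
    e'.eq_symm_apply.2 (Subtype.ext ?_))⟩
  change f (x * e'.symm a * x⁻¹) = _
  rw [map_mul, map_mul, map_inv, h5, h6]

variable {ι Φ : Type} [Fintype ι] [DecidableEq ι] [Fintype Φ] {R : RootSys ι Φ} {F : Type*}
  [Field F] [Finite F] {G : Type} [Group G] [Finite G] {C : ChevSys R F G}

theorem rk_sys [Fact s.Prime] (hF : C.Faithful) (hM : C.HMul) (hi : Injective hM.torus)
    (htop : C.grp = ⊤) {k : ℕ} (hq : Nat.card F ≡ 1 [MOD s ^ (k + 1)])
    (hW : ¬ s ^ (k + 1) ∣ Nat.card R.W) (hb : s ^ (Fintype.card ι + k) < b) : RK G s b := by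
  have hp : s.Prime := Fact.out
  have h1 := index_modEq hF htop hq
  rw [inf_top_eq, relIndex_top_right] at h1
  replace h1 := mt (h1.dvd_iff dvd_rfl).1 hW
  refine .of_ab fun Q hQ => ?_
  obtain ⟨S⟩ : Nonempty (Sylow s C.H) := inferInstance
  obtain ⟨P, hP⟩ := (S.isPGroup'.map C.H.subtype).exists_le_sylow
  obtain ⟨P', hP'⟩ := hQ.exists_le_sylow
  obtain ⟨g, rfl⟩ := MulAction.exists_smul_eq G P' P
  let c := (MulAut.conj g).toMonoidHom
  let T := ((S : Subgroup C.H).map C.H.subtype).comap c ⊓ Q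
  have h2 : ∀ t ∈ T, c t ∈ C.H := fun t ht => map_subtype_le _ ht.1
  refine ⟨T, inf_le_right, fun a ha b hb => (MulAut.conj g).injective ?_, lt_of_le_of_lt ?_ hb⟩
  · rw [map_mul, map_mul]
    exact hM.H_comm (h2 a ha) (h2 b hb)
  rw [pow_add, mul_comm]
  refine Nat.mul_le_mul ?_ ?_
  · choose d hd using fun t : {t : T // t ^ s = 1} => hM.exists_torus (h2 t.1 t.1.2)
    have h3 : ∀ t i, d t i ∈ rootsOfUnity s F := fun t i => congrFun (hi (show hM.torus (d t ^ s) =
      hM.torus 1 by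
        rw [map_pow, hd, ← map_pow, show (t.1 : G) ^ s = 1 from congrArg Subtype.val t.2, map_one,
          map_one])) i
    have : NeZero s := ⟨hp.ne_zero⟩
    refine (Nat.card_le_card_of_injective (fun t i => (⟨d t i, h3 t i⟩ : rootsOfUnity s F))
      fun t t' e => Subtype.ext (Subtype.ext ((MulAut.conj g).injective ?_))).trans ?_
    · exact (hd t).symm.trans ((congrArg _ (funext fun i =>
        congrArg Subtype.val (congrFun e i))).trans (hd t'))
    · rw [Nat.card_fun, Nat.card_eq_fintype_card (α := ι)]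
      exact Nat.pow_le_pow_left (card_rootsOfUnity F s) _
  · rw [inf_relIndex_right, relIndex_comap]
    refine (relIndex_le_of_le_right (L := (g • P' : Sylow s G)) ?_ index_ne_zero_of_finite).trans ?_
    · rintro _ ⟨x, hx, rfl⟩
      rw [Sylow.coe_subgroup_smul]
      exact smul_mem_pointwise_smul _ _ _ (hP' hx)
    obtain ⟨j, hj⟩ := (g • P').isPGroup'.index
      (((S : Subgroup C.H).map C.H.subtype).subgroupOf (g • P' : Sylow s G))
    have h3 := relIndex_dvd_index_of_le hP
    rw [relIndex, hj] at h3 ⊢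
    rw [index_map_subtype] at h3
    refine Nat.pow_le_pow_right hp.pos (not_lt.1 fun h4 => h1 ((pow_dvd_pow s h4).trans ?_))
    exact ((hp.coprime_iff_not_dvd.2 S.not_dvd_index).pow_left j).dvd_of_dvd_mul_left h3

theorem exists_coprime_sys [Fact s.Prime] (hn : 9 ≤ n) (hs : s ≠ 2) (hF : C.Faithful) (hM : C.HMul)
    (hi : Injective hM.torus) (htop : C.grp = ⊤) {k : ℕ} (hq : Nat.card F ≡ 1 [MOD s ^ (k + 1)])
    (hW : ¬ s ^ (k + 1) ∣ Nat.card R.W) (hb : Fintype.card ι + k < n - 2) (h : Sec G n) :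
    ∃ (L : Subgroup G) (f : L →* alternatingGroup (Fin n)), Surjective f ∧ ¬ s ∣ Nat.card f.ker :=
  exists_coprime_of_rk hn hs h (rk_sys hF hM hi htop hq hW
    (Nat.pow_lt_pow_right (Fact.out : s.Prime).one_lt hb))

end Cfsg.Lib.Alt78
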