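import Cfsg.Agent.Lib.Alt78.Fix
import Cfsg.Agent.Lib.AltSec.E6c

/-! The minuscule module of the simply connected group of type `E₇`. -/

set_option autoImplicit false

namespace Cfsg.Lib.Alt78

open Cfsg.Lie Cfsg.Lib.Chev Cfsg.Lib.Alg Cfsg.Lib.AltSec Cfsg.Lib.Chev.RootSys Subgroup Matrix Finset
open scoped MatrixGroups

/-- The root system of type `E₇`. -/
noncomputable abbrev R7 : RootSys (Fin 7) (Fin 126) := checkedE7.R

/-- The weights. -/
def wt7 (a : Fin 8 ⊕ Fin 240) (i : Fin 7) : ℤ :=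
  Sum.elim (fun _ => 0) (fun s : Fin 240 => caN chevE8 i s) a

/-- The index set of the minuscule module. -/
abbrev K56 : Type := {a // dI [7] a = [1]}

/-- Twice the weights in terms of the simple roots. -/
def mu (a : Fin 8 ⊕ Fin 240) (j : Fin 7) : ℤ := Sum.elim (fun _ => 0)
  (fun s : Fin 240 => 2 * aN chevE8 certE8 s j - (![2, 3, 4, 6, 5, 4, 3] : Fin 7 → ℤ) j) a

/-- The table of the weights. -/
def muL : List (List ℤ) := [[-2, -3, -4, -6, -5, -4, -3], [-2, -3, -4, -6, -5, -4, -1], [-2, -3, -4, -6, -5, -2, -1], [-2, -3,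
  -4, -6, -3, -2, -1], [-2, -3, -4, -4, -3, -2, -1], [-2, -3, -2, -4, -3, -2, -1], [-2, -1, -4, -4,
  -3, -2, -1], [-2, -1, -2, -4, -3, -2, -1], [-2, -1, -2, -2, -3, -2, -1], [-2, -1, -2, -2, -1, -2,
  -1], [-2, -1, -2, -2, -1, 0, -1], [-2, -1, -2, -2, -1, 0, 1], [0, -3, -2, -4, -3, -2, -1], [0, -1,
  -2, -4, -3, -2, -1], [0, -1, -2, -2, -3, -2, -1], [0, -1, -2, -2, -1, -2, -1], [0, -1, -2, -2, -1,
  0, -1], [0, -1, -2, -2, -1, 0, 1], [0, -1, 0, -2, -3, -2, -1], [0, -1, 0, -2, -1, -2, -1], [0, -1,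
  0, -2, -1, 0, -1], [0, -1, 0, -2, -1, 0, 1], [0, -1, 0, 0, -1, -2, -1], [0, -1, 0, 0, -1, 0, -1],
  [0, -1, 0, 0, -1, 0, 1], [0, -1, 0, 0, 1, 0, -1], [0, -1, 0, 0, 1, 0, 1], [0, -1, 0, 0, 1, 2, 1],
  [0, 1, 0, 0, -1, -2, -1], [0, 1, 0, 0, -1, 0, -1], [0, 1, 0, 0, -1, 0, 1], [0, 1, 0, 0, 1, 0, -1],
  [0, 1, 0, 0, 1, 0, 1], [0, 1, 0, 0, 1, 2, 1], [0, 1, 0, 2, 1, 0, -1], [0, 1, 0, 2, 1, 0, 1], [0,
  1, 0, 2, 1, 2, 1], [0, 1, 0, 2, 3, 2, 1], [0, 1, 2, 2, 1, 0, -1], [0, 1, 2, 2, 1, 0, 1], [0, 1, 2,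
  2, 1, 2, 1], [0, 1, 2, 2, 3, 2, 1], [0, 1, 2, 4, 3, 2, 1], [0, 3, 2, 4, 3, 2, 1], [2, 1, 2, 2, 1,
  0, -1], [2, 1, 2, 2, 1, 0, 1], [2, 1, 2, 2, 1, 2, 1], [2, 1, 2, 2, 3, 2, 1], [2, 1, 2, 4, 3, 2,
  1], [2, 1, 4, 4, 3, 2, 1], [2, 3, 2, 4, 3, 2, 1], [2, 3, 4, 4, 3, 2, 1], [2, 3, 4, 6, 3, 2, 1],
  [2, 3, 4, 6, 5, 2, 1], [2, 3, 4, 6, 5, 4, 1], [2, 3, 4, 6, 5, 4, 3]]

theorem cnt56 : Fintype.card K56 = 56 := by decide +kernel

theorem mu_eq : (univ : Finset K56).val.map (fun a => List.ofFn (mu a.1)) = muL := by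
  decide +kernel

theorem wt_mu : ∀ a : K56, ∀ i, 2 * wt7 a.1 i = ∑ j, mu a.1 j * caN chevE7 i (chevE7.simple j) := by
  decide +kernel

/-- The number of weights with a given value. -/
def cn (s : ℕ) (t : List ℤ) (m e : ℤ) : ℕ :=
  muL.countP fun l => (m * (List.zipWith (· * ·) l t).sum - 2 * e) % s = 0

theorem tab7 : ∀ (a b : Fin 4) (c : Fin 3) (d : Fin 2) (e : Fin 3) (f : Fin 4) (g : Fin 8),
    2 * a.val + 2 * b.val + 3 * c.val + 4 * d.val + 3 * e.val + 2 * f.val + g.val ≤ 7 →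
    (fun t : List ℤ => cn 7 t 1 1 = cn 7 t 3 1 → cn 7 t 1 2 = cn 7 t 3 2 →
      cn 7 t 1 0 ∈ [2, 8, 20] ∨ ∀ x ∈ t, 7 ∣ x) [a.val, b.val, c.val, d.val, e.val, f.val, g.val] := by
  decide +kernel

theorem tab5 : ∀ (a b : Fin 3) (c d e : Fin 2) (f : Fin 3) (g : Fin 6),
    2 * a.val + 2 * b.val + 3 * c.val + 4 * d.val + 3 * e.val + 2 * f.val + g.val ≤ 5 →
    (fun t : List ℤ => cn 5 t 1 1 = cn 5 t 2 1 →
      cn 5 t 1 0 = 16 ∨ ∀ x ∈ t, 5 ∣ x) [a.val, b.val, c.val, d.val, e.val, f.val, g.val] := by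
  decide +kernel

theorem pair7 (i : Fin 7) (r : Fin 126) : R7.pair (R7.simple i) r = caN chevE7 i r :=
  ((caN_eq chevE7 i r).trans (checkedE7.cartan_eq i r)).symm

theorem exists_alc7 {A : Type*} [CommGroup A] {ζ : A} {N : ℕ} (hN : 0 < N) (hζ : ζ ^ N = 1)
    (y : Fin 7 → ℤ) : ∃ z, ∃ w ∈ R7.W, mAct (R7.wM w) (fun i => ζ ^ y i) = (fun i => ζ ^ z i) ∧
      ∃ t : Fin 7 → ℕ, (∀ i, R7.ev (R7.simple i) z = t i) ∧
        2 * t 0 + 2 * t 1 + 3 * t 2 + 4 * t 3 + 3 * t 4 + 2 * t 5 + t 6 ≤ N := by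
  have h0 : ∀ z, R7.ev 125 z =
      ∑ i, (![2, 2, 3, 4, 3, 2, 1] : Fin 7 → ℤ) i * R7.ev (R7.simple i) z := fun z => by
    have h : ∀ i : Fin 7, aN chevE7 certE7 125 i = (![2, 2, 3, 4, 3, 2, 1] : Fin 7 → ℤ) i := by
      decide +kernel
    rw [ev_eq_sum]
    exact sum_congr rfl fun i _ => congrArg (· * _) (h i)
  have h1 : ∀ i, R7.ev (R7.simple i) ![34, 49, 66, 96, 75, 52, 27] = 2 := fun i => by
    simp only [ev_apply, pair7, checkedE7.simple_val]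
    revert i
    decide +kernel
  obtain ⟨z, w, hw, e, h2, h3⟩ := exists_alcove (fun i => (h1 i).symm ▸ two_pos) (θ := 125) (h := 35)
    (by norm_num) (by rw [h0]; simp only [h1]; decide) hN hζ y
  refine ⟨z, w, hw, e, fun i => (R7.ev (R7.simple i) z).toNat,
    fun i => (Int.toNat_of_nonneg (h2 i)).symm, ?_⟩
  rw [h0] at h3
  simp only [Fin.sum_univ_succ] at h3
  have := h2 0; have := h2 1; have := h2 2; have := h2 3
  have := h2 4; have := h2 5; have := h2 6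
  simp at h3 ⊢
  omega

theorem card_cn {s : ℕ} (hs : s.Coprime 2) {z : Fin 7 → ℤ} {t : Fin 7 → ℕ}
    (h : ∀ i, R7.ev (R7.simple i) z = t i) (m e : ℤ) :
    #{a : K56 | (s : ℤ) ∣ m * (∑ i, z i * wt7 a.1 i) - e} = cn s (List.ofFn fun i => (t i : ℤ)) m e := by
  rw [cn, ← Multiset.coe_countP, ← mu_eq, Multiset.countP_map]
  refine congrArg Multiset.card ((filter_val _ _).trans (Multiset.filter_congr fun a _ => ?_))
  have h1 : (List.zipWith (· * ·) (List.ofFn (mu a.1)) (List.ofFn fun i => (t i : ℤ))).sum =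
      2 * ∑ i, z i * wt7 a.1 i := by
    rw [show (List.zipWith (· * ·) (List.ofFn (mu a.1)) (List.ofFn fun i => (t i : ℤ))).sum =
      ∑ j, mu a.1 j * t j by simp [List.ofFn_succ, Fin.sum_univ_succ]]
    simp only [← h, ev_apply, mul_sum, pair7, checkedE7.simple_val, mul_left_comm (2 : ℤ), wt_mu]
    rw [sum_comm]
    exact sum_congr rfl fun i _ => sum_congr rfl fun j _ => mul_left_comm _ _ _
  rw [h1, ← Int.dvd_iff_emod_eq_zero, mul_left_comm, ← mul_sub]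
  exact ⟨fun h => h.mul_left 2, (Nat.isCoprime_iff_coprime.2 hs).dvd_of_dvd_mul_left⟩

theorem exists_rep {F : Type*} [Field F] [Finite F] (p : ℕ) [Fact p.Prime] [CharP F p] {s n : ℕ}
    [Fact s.Prime] (hs : s = 5 ∨ s = 7) (hp : p ≠ s) (hn : 10 < n) (h : Sec (chevE7.group F) n) :
    ∃ (L : Type) (_ : Group L) (_ : Finite L) (f : L →* alternatingGroup (Fin n)) (k : Type)
      (_ : Field k) (ζ : k) (ψ : L →* Module.End k (K56 → k)), Function.Surjective f ∧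
      ¬ s ∣ Nat.card f.ker ∧ IsPrimitiveRoot ζ s ∧ ∀ x : L, x ^ s = 1 → x ≠ 1 → ∃ t : Fin 7 → ℕ,
        2 * t 0 + 2 * t 1 + 3 * t 2 + 4 * t 3 + 3 * t 4 + 2 * t 5 + t 6 ≤ s ∧ (¬ ∀ i, s ∣ t i) ∧
          ∀ m e : ℕ, ed ψ (x ^ m) (ζ ^ e) = cn s (List.ofFn fun i => (t i : ℤ)) m e := by
  classical
  have hs' : s.Prime := Fact.out
  have hs2 : s.Coprime 2 := by rcases hs with rfl | rfl <;> decide
  obtain ⟨E, _, _, i, hE⟩ := exists_ext F p ((coprime_of_ne hs' hp).pow_right (1 + 1))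
    (pow_pos hs'.pos _)
  have := charP_of_injective_ringHom i.injective p
  let k := AlgebraicClosure E
  obtain ⟨φ, hφ⟩ := algE7 k p (exists_pow_pow_eq E p)
  obtain ⟨n', hn', hF⟩ := exists_card_eq_pow (F := E) p
  let j := algebraMap E k
  obtain ⟨π, -, hπ, -⟩ := hφ.exists_proj j hF (checkedE7.noA1 (by simp)) (checkedE7.gsys_strongComm E)
    (checkedE7.gsys_faithful E) (checkedE7.gsys_adjoint E) (checkedE7.gsys_grp E)
  have := hφ.frob.finite n' hn'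
  obtain ⟨ρ, σ, ε, hE', hρ, -⟩ := checkedE7.exists_emb checkedE8 embE7E8_chk
  obtain ⟨ψ, hψ⟩ := checkedE7.exists_hom_of_emb (by simp) k (checkedE8.strongComm k)
    (checkedE8.adjoint k).hMul hE'
  replace hρ : ∀ i, (ρ i).val = i := fun i => (hρ i).trans (by revert i; decide)
  have hx : ∀ r t, ψ ((checkedE7.stSys k (by simp)).x r t) = (checkedE8.sys k).x (σ r) (ε r * t) :=
    fun r t => by rw [Checked.stSys_x, hψ]
  let ρ' : fix (φ ^ n') →* GL (Fin 8 ⊕ Fin 240) k := ψ.comp (fix (φ ^ n')).subtype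
  have h1 : ∀ c, (ρ' ((hφ.fin_hMul j hF).torus c) : Matrix _ _ k) =
      diagonal fun a => j (∏ i, c i ^ wt7 a i : Eˣ) := fun c => by
    refine (congrArg (fun g => (ψ g).val) (hφ.coe_fin_torus j hF c)).trans
      ((tor_diag (ψ.comp hφ.tor) wt7 (fun i t => ?_) _).trans
        (congrArg diagonal (funext fun a => by simp [map_zpow₀])))
    rw [MonoidHom.comp_apply, hφ.hMul.torus_mulSingle, hE'.map_h hx]
    refine (congrArg Units.val ((checkedE8.base' k).h_simple_eq _ _)).trans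
      ((RootSys.mono_one_eq_diagonal _).trans (congrArg diagonal (funext fun a => ?_)))
    rcases a with a | a
    · exact (congrArg Units.val (zpow_zero t)).symm
    · exact congrArg (fun m : ℤ => (t ^ m).val) ((checkedE8.cartan_eq _ _).symm.trans
        (hρ i ▸ (caN_eq _ _ _).symm))
  have h2 : ∀ g, g ∈ (bdGrp k (dI [7])).comap ρ' := fun g => PreSys.XS_le.2 (fun r _ t => by
    have h4 : ∀ i ∈ [(7 : Fin 8)], R8.α (σ r) i = 0 := fun i hi => hE'.α_out r i (by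
      rintro ⟨i', rfl⟩
      have h5 : 7 = i'.val := (congrArg Fin.val (List.mem_singleton.1 hi)).symm.trans (hρ i')
      have h6 : i'.val < 7 := i'.2
      omega)
    have h5 : ∀ t, (checkedE8.sys k).x (σ r) t ∈ bdGrp k (dI [7]) := fun t =>
      ⟨bd_x checkedE8.T h4 t, (checkedE8.sys k).x_neg (σ r) t ▸ bd_x checkedE8.T h4 (-t)⟩
    have h6 : ρ' ((hφ.fin j hF).x r t) ∈ bdGrp k (dI [7]) := (hx r (j t)).symm ▸ h5 _
    exact h6) ((hφ.fin_grp j hF).ge (mem_top g))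
  let β := (toLinAlgEquiv' (R := k) (n := K56)).toMonoidHom.comp
    ((Set6.β (ρ := ρ') [7] [1]).comp ((MonoidHom.id _).codRestrict _ h2))
  have h3 : ∀ c, β ((hφ.fin_hMul j hF).torus c) =
      toLin' (diagonal fun a : K56 => j (∏ i, c i ^ wt7 a.1 i : Eˣ)) := fun c =>
    congrArg toLin' (blk_diagonal [1] (g := ⟨_, h2 _⟩) (h1 c))
  obtain ⟨L, f, hf, hk⟩ := exists_coprime_sys (s := s) (by omega) (by omega) (hφ.fin_faithful j hF)
    (hφ.fin_hMul j hF) (hφ.fin_inj j hF) (hφ.fin_grp j hF) hE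
    (by rw [cardWE7]; rcases hs with rfl | rfl <;> decide)
    (by rw [show Fintype.card (Fin chevE7.rank) = 7 from rfl]; omega) ((h.group i).of_surj π hπ)
  have h4 : s ∣ Nat.card E - 1 :=
    (Nat.modEq_iff_dvd' Nat.card_pos).1 (hE.of_dvd (dvd_pow_self s two_ne_zero)).symm
  obtain ⟨ζ, hζ⟩ := exists_prime_orderOf_dvd_card' (G := Eˣ) s (by rwa [Nat.card_units])
  have hζ' : IsPrimitiveRoot ζ s := hζ ▸ IsPrimitiveRoot.orderOf ζ
  have h5 : IsPrimitiveRoot (j ζ) s := (IsPrimitiveRoot.coe_units_iff.2 hζ').map_of_injective j.injective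
  refine ⟨L, inferInstance, inferInstance, f, k, inferInstance, j ζ, β.comp L.subtype, hf, hk, h5,
    fun x hx1 hx2 => ?_⟩
  obtain ⟨c, hc, h6⟩ := hφ.exists_isConj_fin hn' j hF (hF ▸ h4) (x := x) (congrArg Subtype.val hx1)
  have : NeZero s := ⟨hs'.ne_zero⟩
  choose y hy using fun i => hζ'.eq_pow_of_mem_rootsOfUnity (ξ := c i) (congrFun hc i)
  obtain ⟨z, w, hw, h7, t, h8, h9⟩ := exists_alc7 hs'.pos hζ'.pow_eq_one fun i => y i
  obtain ⟨u, hu⟩ := (hφ.fin j hF).exists_nw_of_mem_W hw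
  replace h6 : IsConj x.1 ((hφ.fin_hMul j hF).torus fun i => ζ ^ z i) :=
    h6.trans (isConj_iff.2 ⟨u, ((hφ.fin_hMul j hF).nw_conj_torus hu c).trans (congrArg _
      ((congrArg _ (funext fun i => by rw [zpow_natCast, (hy i).2])).trans h7))⟩)
  refine ⟨t, h9, fun h10 => hx2 (Subtype.ext ?_), fun m e => ?_⟩
  · have h11 : (fun i => ζ ^ z i) ∈ R7.kerChr E := funext fun r => by
      rw [chr_zpow, ev_eq_sum]
      exact (hζ'.zpow_eq_one_iff_dvd _).2 (dvd_sum fun i _ => (h8 i ▸ Int.natCast_dvd_natCast.2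
        (h10 i)).mul_left _)
    have h12 : ζ ^ z 1 = 1 := (hζ'.zpow_eq_one_iff_dvd _).2
      ((Nat.isCoprime_iff_coprime.2 hs2).dvd_of_dvd_mul_right ((hζ'.zpow_eq_one_iff_dvd _).1 (by
        rw [_root_.zpow_mul, zpow_natCast]
        exact (kerDataE7 checkedE7).pow_eq_one h11 0)))
    have h13 : (fun i => ζ ^ z i) = 1 := funext fun i =>
      ((kerDataE7 checkedE7).eq_prod h11 i).trans (by
        rw [Fin.prod_univ_one]
        change (ζ ^ z 1) ^ _ = 1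
        rw [h12, _root_.one_zpow])
    exact isConj_one_left.1 (((congrArg (hφ.fin_hMul j hF).torus h13).trans (map_one _)) ▸ h6 :)
  · rw [← card_cn hs2 h8]
    refine (ed_conj (ψ := β) (h6.pow m) _).trans ?_
    rw [← map_pow, ed_diagonal (h3 _)]
    refine congrArg card (filter_congr fun a _ => ?_)
    rw [← map_pow, ← Units.val_pow_eq_pow_val, j.injective.eq_iff, Units.val_inj,
      ← hζ'.zpow_eq_one_iff_dvd, _root_.zpow_sub, mul_inv_eq_one, zpow_natCast]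
    refine Eq.congr_left ?_
    simp only [Pi.pow_apply, ← zpow_natCast, ← _root_.zpow_mul, prod_zpow_eq, mul_sum]
    exact congrArg _ (sum_congr rfl fun i _ => by ring)

end Cfsg.Lib.Alt78
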