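import Cfsg.Agent.Lib.Alt78.Cop
import Cfsg.Agent.Lib.Chev.ElOrd

/-! Eigenspaces of commuting elements of prime order, lifting of conjugacy, and the alcove. -/

set_option autoImplicit false

namespace Cfsg.Lib.Alt78

open Module Finset Polynomial Subgroup

section

variable {k V : Type*} [Field k] [AddCommGroup V] [Module k V] [FiniteDimensional k V]

theorem finrank_eq_sum_aux {ι : Type*} {a : End k V} (c : ι → k) (S : Finset ι)
    (hc : Set.InjOn c S) : ∀ W : Submodule k V, (∀ v ∈ W, a v ∈ W) →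
      (∀ v ∈ W, aeval a (∏ j ∈ S, (X - C (c j))) v = 0) →
        finrank k W = ∑ j ∈ S, finrank k ↥(W ⊓ a.eigenspace (c j)) := by
  classical
  induction S using Finset.induction_on with
  | empty => exact fun W _ h => by rw [(Submodule.eq_bot_iff W).2 (by simpa using h)]; simp
  | insert i S hi ih =>
    intro W hW h
    let f : End k V := a - c i • 1
    have h1 : finrank k (W.map f) + finrank k ↥(W ⊓ LinearMap.ker f) = finrank k W := by
      rw [← LinearMap.range_domRestrict, ← (f.domRestrict W).finrank_range_add_finrank_ker,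
        LinearMap.ker_domRestrict, ← Submodule.finrank_map_subtype_eq W, Submodule.map_comap_subtype]
    have h2 : ∀ v ∈ W.map f, v ∈ W := by
      rintro _ ⟨v, hv, rfl⟩
      exact W.sub_mem (hW v hv) (W.smul_mem _ hv)
    rw [sum_insert hi, End.eigenspace_def, ← h1, add_comm, ih (hc.mono (by simp)) (W.map f)]
    · refine congrArg _ (sum_congr rfl fun j hj => ?_)
      rw [show W.map f ⊓ a.eigenspace (c j) = W ⊓ a.eigenspace (c j) from
        le_antisymm (inf_le_inf_right _ h2) fun v hv => ⟨⟨(c j - c i)⁻¹ • v, W.smul_mem _ hv.1, ?_⟩,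
          hv.2⟩]
      have h3 : c j - c i ≠ 0 := sub_ne_zero.2 fun e =>
        hi (hc (by simp [hj]) (by simp) e ▸ hj)
      simp only [f, map_smul, LinearMap.sub_apply, LinearMap.smul_apply, End.one_apply]
      rw [End.mem_eigenspace_iff.1 hv.2, ← sub_smul, inv_smul_smul₀ h3]
    · rintro _ ⟨v, hv, rfl⟩
      exact ⟨a v, hW v hv, by simp [f]⟩
    · rintro _ ⟨v, hv, rfl⟩
      have := h v hv
      rw [prod_insert hi, mul_comm, map_mul, End.mul_apply] at this
      simpa [f, Algebra.algebraMap_eq_smul_one] using this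

theorem finrank_eq_sum {a : End k V} {ζ : k} {s : ℕ} (hζ : IsPrimitiveRoot ζ s) (hs : 0 < s)
    (ha : a ^ s = 1) {W : Submodule k V} (hW : ∀ v ∈ W, a v ∈ W) :
    finrank k W = ∑ j ∈ range s, finrank k ↥(W ⊓ a.eigenspace (ζ ^ j)) := by
  refine finrank_eq_sum_aux (ζ ^ ·) _ (fun i hi j hj e => hζ.pow_inj (by simpa using hi)
    (by simpa using hj) e) W hW fun v _ => ?_
  have := X_pow_sub_C_eq_prod hζ hs (one_pow s)
  simp only [mul_one] at this
  rw [← this]
  simp [ha]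

theorem mem_inf_eig {a b : End k V} (h : a * b = b * a) {W : Submodule k V}
    (hb : ∀ v ∈ W, b v ∈ W) (c : k) : ∀ v ∈ W ⊓ a.eigenspace c, b v ∈ W ⊓ a.eigenspace c :=
  fun v hv => ⟨hb v hv.1, End.mem_eigenspace_iff.2 (by
    rw [← End.mul_apply, h, End.mul_apply, End.mem_eigenspace_iff.1 hv.2, map_smul])⟩

/-- Counting fixed spaces of the cyclic subgroups of an elementary abelian group of rank two. -/
theorem sum_fix {a b : End k V} {ζ : k} {s : ℕ} (hζ : IsPrimitiveRoot ζ s) (hs : s.Prime)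
    (ha : a ^ s = 1) (hb : b ^ s = 1) (h : a * b = b * a) {W : Submodule k V}
    (haW : ∀ v ∈ W, a v ∈ W) (hbW : ∀ v ∈ W, b v ∈ W) :
    ∑ i ∈ range s, finrank k ↥(W ⊓ (a ^ i * b).eigenspace 1) + finrank k ↥(W ⊓ a.eigenspace 1) =
      finrank k W + s * finrank k ↥(W ⊓ a.eigenspace 1 ⊓ b.eigenspace 1) := by
  have h0 : ζ ≠ 0 := hζ.ne_zero hs.ne_zero
  have h1 : ∀ i, finrank k ↥(W ⊓ (a ^ i * b).eigenspace 1) =
      ∑ j ∈ range s, finrank k ↥(W ⊓ a.eigenspace (ζ ^ j) ⊓ b.eigenspace ((ζ ^ j)⁻¹ ^ i)) := fun i => by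
    have hc : Commute a (a ^ i * b) := ((Commute.refl a).pow_right i).mul_right h
    rw [finrank_eq_sum hζ hs.pos ha (mem_inf_eig hc.symm.eq haW 1)]
    refine sum_congr rfl fun j _ => congrArg (fun U : Submodule k V => finrank k U) ?_
    ext v
    simp only [Submodule.mem_inf, End.mem_eigenspace_iff, one_smul,
      ((show Commute a b from h).pow_left i).eq, End.mul_apply]
    have key : a v = ζ ^ j • v → (a ^ i) v = (ζ ^ j) ^ i • v := fun e => by
      induction i with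
      | zero => simp
      | succ i ih =>
        rw [pow_succ, End.mul_apply, e, map_smul,
          ih (((Commute.refl a).pow_right i).mul_right h), smul_smul, ← pow_succ']
    have h2 : (ζ ^ j) ^ i ≠ 0 := pow_ne_zero _ (pow_ne_zero _ h0)
    refine ⟨fun ⟨⟨h3, h4⟩, h5⟩ => ⟨⟨h3, h5⟩, ?_⟩, fun ⟨⟨h3, h4⟩, h5⟩ => ⟨⟨h3, ?_⟩, h4⟩⟩
    · rw [key h5, map_smul] at h4
      rw [inv_pow, eq_inv_smul_iff₀ h2, h4]
    · rw [key h4, map_smul, h5, inv_pow, smul_inv_smul₀ h2]
  simp only [h1]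
  rw [sum_comm, finrank_eq_sum hζ hs.pos ha haW]
  obtain ⟨m, rfl⟩ : ∃ m, s = m + 1 := ⟨s - 1, (Nat.succ_pred_eq_of_pos hs.pos).symm⟩
  rw [sum_range_succ', sum_range_succ' (fun j => finrank k ↥(W ⊓ a.eigenspace (ζ ^ j))),
    sum_congr rfl fun j hj => (finrank_eq_sum (hζ.pow_of_coprime (j + 1) (Nat.coprime_of_lt_prime
      j.succ_ne_zero (by simpa using hj) hs).symm).inv hs.pos hb (mem_inf_eig h hbW _)).symm]
  rw [sum_congr rfl fun i _ => show finrank k ↥(W ⊓ a.eigenspace (ζ ^ 0) ⊓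
    b.eigenspace ((ζ ^ 0)⁻¹ ^ i)) = finrank k ↥(W ⊓ a.eigenspace 1 ⊓ b.eigenspace 1) by
      rw [pow_zero, inv_one, one_pow], sum_const, card_range, smul_eq_mul, pow_zero]
  ring

variable {G : Type*} [Group G] (ψ : G →* End k V)

/-- The dimension of an eigenspace. -/
noncomputable def ed (g : G) (c : k) : ℕ := finrank k ((ψ g).eigenspace c)

variable {ψ}

theorem ed_conj {g g' : G} (h : IsConj g g') (c : k) : ed ψ g c = ed ψ g' c := by
  have key : ∀ {g g' : G}, IsConj g g' → ed ψ g c ≤ ed ψ g' c := fun {g g'} h => by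
    obtain ⟨a, rfl⟩ := isConj_iff.1 h
    have h1 : ∀ v, ψ a⁻¹ (ψ a v) = v := fun v => by
      rw [← End.mul_apply, ← map_mul, inv_mul_cancel, map_one, End.one_apply]
    refine LinearMap.finrank_le_finrank_of_injective (f := (ψ a).restrict fun v hv => ?_)
      fun v w e => Subtype.ext ?_
    · rw [End.mem_eigenspace_iff] at hv ⊢
      rw [map_mul, map_mul, End.mul_apply, End.mul_apply, h1, hv, map_smul]
    · rw [← h1 v, ← h1 w]
      exact congrArg _ (congrArg Subtype.val e)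
  exact (key h).antisymm (key h.symm)

theorem sum_ed {ζ : k} {s : ℕ} (hζ : IsPrimitiveRoot ζ s) (hs : s.Prime) {a b : G} (ha : a ^ s = 1)
    (hb : b ^ s = 1) (h : a * b = b * a) : ∑ i ∈ range s, ed ψ (a ^ i * b) 1 + ed ψ a 1 =
      finrank k V + s * finrank k ↥((ψ a).eigenspace 1 ⊓ (ψ b).eigenspace 1) := by
  have := sum_fix (a := ψ a) (b := ψ b) hζ hs (by rw [← map_pow, ha, map_one])
    (by rw [← map_pow, hb, map_one]) (by rw [← map_mul, h, map_mul]) (W := ⊤) (by simp) (by simp)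
  rw [finrank_top, top_inf_eq] at this
  rw [← this]
  congr 1
  exact sum_congr rfl fun i _ => by rw [top_inf_eq, ed, map_mul, map_pow]

end

theorem ed_diagonal {G κ k : Type*} [Group G] [Fintype κ] [DecidableEq κ] [Field k] [DecidableEq k]
    {ψ : G →* End k (κ → k)} {g : G} {w : κ → k} (h : ψ g = Matrix.toLin' (Matrix.diagonal w))
    (c : k) : ed ψ g c = #{a | w a = c} := by
  have h0 : ψ g - c • 1 = (Matrix.diagonal fun a => w a - c).mulVecLin := by
    refine LinearMap.ext fun v => funext fun a => ?_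
    simp [h, Matrix.mulVec_diagonal, sub_mul]
  have h1 := (ψ g - c • 1).finrank_range_add_finrank_ker
  rw [h0] at h1
  rw [ed, End.eigenspace_def, h0]
  rw [← Matrix.rank, Matrix.rank_diagonal, finrank_fintype_fun_eq_card, Fintype.card_subtype] at h1
  have h2 := card_filter_add_card_filter_not (s := (univ : Finset κ)) fun a => w a = c
  simp only [ne_eq, sub_eq_zero] at h1
  rw [card_univ] at h2
  omega

theorem isPGroup_closure {B : Type*} [Group B] {s : ℕ} {S : Set B}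
    (hc : ∀ a ∈ S, ∀ b ∈ S, a * b = b * a) (hs : ∀ a ∈ S, a ^ s = 1) :
    IsPGroup s (closure S) := fun a => by
  have h3 : ∀ a ∈ closure S, ∀ b ∈ closure S, a * b = b * a := fun a ha b hb =>
    congrArg Subtype.val ((isMulCommutative_closure hc).1.1 ⟨a, ha⟩ ⟨b, hb⟩)
  refine ⟨1, Subtype.ext ?_⟩
  obtain ⟨a, ha⟩ := a
  rw [pow_one, Subgroup.coe_pow]
  induction ha using closure_induction with
  | mem a ha => exact hs a ha
  | one => simp
  | mul a b ha hb h h' => rw [(show Commute a b from h3 a ha b hb).mul_pow, h, h']; simp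
  | inv a _ h => rw [inv_pow, h]; simp

theorem isConj_lift {L B : Type*} [Group L] [Finite L] [Group B] {s : ℕ} [Fact s.Prime]
    {f : L →* B} (hf : Function.Surjective f) (hk : ¬ s ∣ Nat.card f.ker) {x y : L}
    (hx : x ^ s = 1) (hy : y ^ s = 1) (h : IsConj (f x) (f y)) : IsConj x y := by
  obtain ⟨g, hg⟩ := isConj_iff.1 h
  obtain ⟨g, rfl⟩ := hf g
  refine (isConj_iff.2 ⟨g, rfl⟩).trans ?_
  have hx' : (g * x * g⁻¹) ^ s = 1 := by rw [conj_pow, hx, mul_one, mul_inv_cancel]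
  rw [← map_inv, ← map_mul, ← map_mul] at hg
  generalize g * x * g⁻¹ = x at hx' hg
  let M := (zpowers (f y)).comap f
  have key : ∀ x : M, x.1 ^ s = 1 → ∃ Q : Sylow s M, x ∈ Q := fun x hx => by
    obtain ⟨Q, hQ⟩ := (isPGroup_closure (S := {x}) (by simp)
      (by simpa using Subtype.ext hx)).exists_le_sylow
    exact ⟨Q, hQ (subset_closure rfl)⟩
  obtain ⟨Q, hQ⟩ := key ⟨x, mem_comap.2 (hg.symm ▸ mem_zpowers (f y))⟩ hx'
  obtain ⟨Q', hQ'⟩ := key ⟨y, mem_zpowers _⟩ hy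
  obtain ⟨m, rfl⟩ := MulAction.exists_smul_eq M Q Q'
  obtain ⟨j, hj⟩ := (m • Q).isPGroup' ⟨_, mul_mem (smul_mem_pointwise_smul _ (MulAut.conj m) _ hQ)
    (inv_mem hQ')⟩
  refine isConj_iff.2 ⟨m, mul_inv_eq_one.1 (orderOf_eq_one_iff.1 (Nat.eq_one_of_dvd_coprimes
    (((Fact.out : s.Prime).coprime_iff_not_dvd.2 hk).pow_left j)
    (orderOf_dvd_of_pow_eq_one (congrArg (·.1.1) hj)) (f.ker.orderOf_dvd_natCard ?_)))⟩
  obtain ⟨i, hi⟩ := m.2
  simp only [MonoidHom.mem_ker, map_mul, map_inv, hg, ← hi]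
  group

open Cfsg.Lib.Chev Cfsg.Lib.Chev.RootSys in
theorem exists_alcove {ι Φ : Type} [Fintype ι] [DecidableEq ι] [Fintype Φ] {R : RootSys ι Φ}
    {A : Type*} [CommGroup A] {ρ : ι → ℤ} (hρ : ∀ i, 0 < R.ev (R.simple i) ρ) {θ : Φ} {h : ℤ}
    (h0 : 0 < h) (hθ : R.ev θ ρ < h) {ζ : A} {N : ℕ} (hN : 0 < N) (hζ : ζ ^ N = 1) (y : ι → ℤ) :
    ∃ z : ι → ℤ, ∃ w ∈ R.W, mAct (R.wM w) (fun i => ζ ^ y i) = (fun i => ζ ^ z i) ∧
      (∀ i, 0 ≤ R.ev (R.simple i) z) ∧ R.ev θ z ≤ N := by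
  induction e : (R.nrm (h • y - (N : ℤ) • ρ) (h • y - (N : ℤ) • ρ)).toNat using Nat.strong_induction_on
    generalizing y with | _ m ih
  have key : ∀ (r : Φ) (c : ℤ), 0 < (R.ev r y - c * N) * (h * c - R.ev r ρ) →
      ∃ z : ι → ℤ, ∃ w ∈ R.W, mAct (R.wM w) (fun i => ζ ^ y i) = (fun i => ζ ^ z i) ∧
        (∀ i, 0 ≤ R.ev (R.simple i) z) ∧ R.ev θ z ≤ N := fun r c hc => by
    refine (ih _ ?_ (y - (R.ev r y - c * N) • R.co r) rfl).elim fun z ⟨w, hw, h1, h2⟩ =>
      ⟨z, w * R.refl r, mul_mem hw (R.refl_mem_W r), ?_, h2⟩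
    swap
    · rw [(isAut_of_mem_W hw).wM_mul, mAct_mul, mAct_zpow, wM_refl, ← h1]
      congr 1
      ext i : 1
      rw [show (y - (R.ev r y - c * N) • R.co r) i = (y - R.ev r y • R.co r) i + N * (c * R.co r i) by
        simp; ring, _root_.zpow_add, _root_.zpow_mul, zpow_natCast, hζ, _root_.one_zpow, mul_one]
    · rw [← e, show h • (y - (R.ev r y - c * N) • R.co r) - (N : ℤ) • ρ =
        h • y - (N : ℤ) • ρ - (h * (R.ev r y - c * N)) • R.co r by module]
      have hlt : ∀ {a b : ℤ}, 0 ≤ a → a < b → a.toNat < b.toNat := fun _ _ => by omega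
      refine hlt (nrm_self_nonneg _) ?_
      rw [nrm_sub_co, map_sub, map_smul, map_smul, smul_eq_mul, smul_eq_mul, sub_lt_self_iff]
      refine mul_pos ?_ (nrm_co_pos r)
      have := mul_pos (mul_pos h0 (Nat.cast_pos.2 hN)) hc
      linarith
  by_cases h1 : ∀ i, 0 ≤ R.ev (R.simple i) y
  · by_cases h2 : R.ev θ y ≤ N
    · exact ⟨y, 1, one_mem _, by rw [wM_one, mAct_one], h1, h2⟩
    · exact key θ 1 (mul_pos (by omega) (by omega))
  · obtain ⟨i, hi⟩ := not_forall.1 h1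
    exact key (R.simple i) 0 (mul_pos_of_neg_of_neg (by omega) (by have := hρ i; omega))

end Cfsg.Lib.Alt78
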